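import Cfsg.Agent.DefectOne.Bridge
import Cfsg.Agent.CharBasics.Central

/-!
# Blocks induced from the centraliser
-/

set_option autoImplicit false
set_option linter.style.haveILetI false
set_option linter.unusedSectionVars false

namespace CfsgLib.DefectOne

open Cfsg CfsgLib.CharBasics CfsgLib.Blocks
open scoped ComplexConjugate

universe u

namespace Data

variable {G : Type u} [Group G] [Fintype G] {p : ℕ} [Fact p.Prime] (D : Data G p)

/-- The centraliser of the Sylow subgroup. -/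
abbrev Cx : Subgroup G := Subgroup.centralizer (Subgroup.zpowers D.x : Set G)

/-- A point as an element of the centraliser. -/
noncomputable def cpt (i : ZMod p) (v : D.V) : D.Cx :=
  ⟨D.pt (i, v), D.pt_mem_centralizer _⟩

/-- The character of `V` below a character of the centraliser trivial on the Sylow subgroup. -/
theorem exists_base (θ : IrrCharacter (D.Cx))
    (hθP : ∀ c : D.Cx, (c : G) ∈ Subgroup.zpowers D.x →
      (θ : D.Cx → ℂ) c = (θ : D.Cx → ℂ) 1) :
    ∃ φ : IrrCharacter D.V, (∀ i v, (θ : D.Cx → ℂ) (D.cpt i v) = (φ : D.V → ℂ) v) ∧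
      charDegree (φ : D.V → ℂ) = charDegree (θ : D.Cx → ℂ) := by
  classical
  haveI : Fintype D.Cx := Fintype.ofFinite _
  let f : D.V →* D.Cx := MonoidHom.mk' (fun v => D.cpt 0 v) fun a b => Subtype.ext (by
    show D.pt (0, a * b) = D.pt (0, a) * D.pt (0, b)
    rw [← D.pt_mul, add_zero])
  have hi : ∀ i v, (θ : D.Cx → ℂ) (D.cpt i v) = (θ : D.Cx → ℂ) (f v) := by
    intro i v
    have e : D.cpt i v = D.cpt i 1 * D.cpt 0 v := Subtype.ext (by
      show D.pt (i, v) = D.pt (i, 1) * D.pt (0, v)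
      rw [← D.pt_mul, add_zero, one_mul])
    rw [e]
    refine apply_mul_of_apply_eq (isCharacter_of_irr θ.2) (hθP _ ?_) _
    show D.pt (i, 1) ∈ _
    simp only [pt, OneMemClass.coe_one, mul_one]
    exact pow_mem (Subgroup.mem_zpowers _) _
  have hchar : IsCharacter D.V (fun v => (θ : D.Cx → ℂ) (f v)) := CharBasics.isCharacter_comp (isCharacter_of_irr θ.2) f
  have hnorm : classInner (fun v => (θ : D.Cx → ℂ) (f v)) (fun v => (θ : D.Cx → ℂ) (f v)) = 1 := by
    rw [← classInner_self θ.2, classInner_eq, classInner_eq, D.card_centralizer]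
    let e : ZMod p × D.V ≃ D.Cx := Equiv.ofBijective (fun q => D.cpt q.1 q.2) ⟨fun a b h => by
        obtain ⟨h1, h2⟩ := D.pt_inj (congrArg Subtype.val h)
        exact Prod.ext h1 h2, fun c => by
        obtain ⟨q, hq⟩ := D.exists_pt (D.mem_centralizer_iff_commute.1 c.2)
        exact ⟨q, Subtype.ext hq.symm⟩⟩
    rw [← e.sum_comp, Fintype.sum_prod_type]
    rw [Finset.sum_congr rfl (g := fun _ => ∑ v : D.V, (θ : D.Cx → ℂ) (f v) * conj ((θ : D.Cx → ℂ) (f v)))
      (fun i _ => Finset.sum_congr rfl fun v _ => by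
        show (θ : D.Cx → ℂ) (D.cpt i v) * conj ((θ : D.Cx → ℂ) (D.cpt i v)) = _
        rw [hi])]
    rw [Finset.sum_const, Finset.card_univ, ZMod.card, nsmul_eq_mul, Nat.cast_mul, mul_inv]
    have := natCast_p_ne_zero (p := p)
    field_simp
  refine ⟨⟨_, isIrr_of_norm_one hchar hnorm⟩, hi, ?_⟩
  have h1 : ((charDegree (fun v => (θ : D.Cx → ℂ) (f v)) : ℕ) : ℂ) = (charDegree (θ : D.Cx → ℂ) : ℂ) := by
    rw [← apply_one hchar, ← apply_one (isCharacter_of_irr θ.2), map_one]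
  exact Nat.cast_injective h1

theorem sum_cj (φ : IrrCharacter D.V) (v : D.V) :
    ∑ h : D.H, (D.cj h φ : D.V → ℂ) v =
      (Nat.card (Clifford.inertia (G := D.H) (φ : D.V → ℂ)) : ℂ) * D.osum φ v := by
  classical
  rw [osum, Finset.mul_sum, ← Finset.sum_fiberwise_of_maps_to (g := fun h => D.cj h φ) (t := D.orb φ)
    (fun h _ => D.mem_orb.2 ⟨h, rfl⟩)]
  refine Finset.sum_congr rfl fun ψ hψ => ?_
  obtain ⟨h₀, rfl⟩ := D.mem_orb.1 hψ
  rw [Finset.sum_congr rfl (g := fun _ => (D.cj h₀ φ : D.V → ℂ) v) (fun h hh => by rw [(Finset.mem_filter.1 hh).2]),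
    Finset.sum_const, nsmul_eq_mul]
  congr 2
  rw [Nat.card_eq_fintype_card, ← Finset.card_univ]
  refine (Finset.card_bij (fun (a : Clifford.inertia (G := D.H) (φ : D.V → ℂ)) _ => (a : D.H) * h₀)
    (fun a _ => ?_) (fun a _ b _ h => ?_) (fun h hh => ?_)).symm
  · simp only [Finset.mem_filter, Finset.mem_univ, true_and]
    rw [← D.cj_cj, D.mem_inertia_iff.1 a.2]
  · exact Subtype.ext (mul_right_cancel h)
  · simp only [Finset.mem_filter, Finset.mem_univ, true_and] at hh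
    refine ⟨⟨h * h₀⁻¹, D.mem_inertia_iff.2 ?_⟩, Finset.mem_univ _, by simp⟩
    rw [← D.cj_cj, hh, D.cj_cj, mul_inv_cancel, D.cj_one]

/-- The orbit of a block induced from a character of the centraliser. -/
theorem blk_of_induced {M : Ideal AlgInt} (hM : IsPModular p M)
    {θ : IrrCharacter (D.Cx)} {φ φ₀ : IrrCharacter D.V}
    (hφ : ∀ i v, (θ : D.Cx → ℂ) (D.cpt i v) = (φ : D.V → ℂ) v) {χ : IrrCharacter G} (hχ : χ ∈ D.blk φ₀)
    (hind : ∀ g, MemLocalIdeal M (inducedCentralChar (D.Cx)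
      (θ : D.Cx → ℂ) g - centralChar (χ : G → ℂ) g)) : φ₀ ∈ D.orb φ := by
  classical
  haveI : Fintype D.Cx := Fintype.ofFinite _
  refine D.mem_orb_of_nrm hM fun v => ?_
  set g := D.pt ((1 : ZMod p), v) with hg
  set m := Nat.card {h : D.H // (h : G) * g * (h : G)⁻¹ = g} with hm
  -- the class in the centraliser
  have hone : (1 : ZMod p) ≠ 0 := one_ne_zero
  have hconj : ∀ h : D.H, (h : G) * g * (h : G)⁻¹ ∈ D.Cx := fun h => by
    rw [hg, D.pt_conj]; exact D.pt_mem_centralizer _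
  have hS : ∀ c : D.Cx, IsConj g (c : G) ↔ ∃ h : D.H, (h : G) * g * (h : G)⁻¹ = c := by
    intro c
    refine ⟨fun hc => ?_, fun ⟨h, hh⟩ => isConj_iff.2 ⟨h, hh⟩⟩
    obtain ⟨y, hy⟩ := isConj_iff.1 hc
    obtain ⟨⟨i, w⟩, hq⟩ := D.exists_pt (D.mem_centralizer_iff_commute.1 c.2)
    obtain ⟨h, -, hh⟩ := D.exists_H_of_conj hone (hy.trans hq)
    exact ⟨h, hh.trans hq.symm⟩
  have hleft : (m : ℂ) * inducedCentralChar D.Cx (θ : D.Cx → ℂ) g = (Nat.card D.H : ℂ) * D.nrm φ v := by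
    rw [inducedCentralChar, finsum_mem_eq_sum_of_subset (s := {c : D.Cx | IsConj g (c : G)}) (t := Finset.univ.filter fun c : D.Cx => IsConj g (c : G)) _
      (fun c hc => by simpa using hc.1) (fun c hc => (Finset.mem_filter.1 hc).2), Finset.mul_sum]
    have h1 : ∑ h : D.H, (θ : D.Cx → ℂ) ⟨_, hconj h⟩ / (θ : D.Cx → ℂ) 1 =
        ∑ c ∈ Finset.univ.filter (fun c : D.Cx => IsConj g (c : G)), (m : ℂ) * ((θ : D.Cx → ℂ) c / (θ : D.Cx → ℂ) 1) := by
      rw [← Finset.sum_fiberwise_of_maps_to (g := fun h : D.H => (⟨_, hconj h⟩ : D.Cx))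
        (t := Finset.univ.filter fun c : D.Cx => IsConj g (c : G))
        (fun h _ => Finset.mem_filter.2 ⟨Finset.mem_univ _, (hS _).2 ⟨h, rfl⟩⟩)]
      refine Finset.sum_congr rfl fun c hc => ?_
      obtain ⟨h₀, hh₀⟩ := (hS c).1 (Finset.mem_filter.1 hc).2
      rw [Finset.sum_congr rfl (g := fun _ => (θ : D.Cx → ℂ) c / (θ : D.Cx → ℂ) 1)
        (fun h hh => by rw [(Finset.mem_filter.1 hh).2]), Finset.sum_const, nsmul_eq_mul]
      congr 2
      rw [hm, Nat.card_eq_fintype_card, ← Finset.card_univ]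
      refine (Finset.card_bij (fun (a : {h : D.H // (h : G) * g * (h : G)⁻¹ = g}) _ => h₀ * a.1)
        (fun a _ => ?_) (fun a _ b _ h => ?_) (fun h hh => ?_)).symm
      · simp only [Finset.mem_filter, Finset.mem_univ, true_and]
        refine Subtype.ext ?_
        show ((h₀ * a.1 : D.H) : G) * g * ((h₀ * a.1 : D.H) : G)⁻¹ = c
        rw [Subgroup.coe_mul, mul_inv_rev, ← hh₀,
          show (h₀ : G) * (a.1 : G) * g * ((a.1 : G)⁻¹ * (h₀ : G)⁻¹) =
            (h₀ : G) * ((a.1 : G) * g * (a.1 : G)⁻¹) * (h₀ : G)⁻¹ by group, a.2]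
      · exact Subtype.ext (mul_left_cancel h)
      · simp only [Finset.mem_filter, Finset.mem_univ, true_and] at hh
        have hh' : (h : G) * g * (h : G)⁻¹ = c := congrArg Subtype.val hh
        refine ⟨⟨h₀⁻¹ * h, ?_⟩, Finset.mem_univ _, by simp⟩
        rw [Subgroup.coe_mul, Subgroup.coe_inv, mul_inv_rev, inv_inv,
          show (h₀ : G)⁻¹ * (h : G) * g * ((h : G)⁻¹ * (h₀ : G)) = (h₀ : G)⁻¹ * ((h : G) * g * (h : G)⁻¹) * (h₀ : G) by
            group, hh', ← hh₀]
        group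
    rw [← h1, ← Finset.sum_div]
    have h2 : ∀ h : D.H, (θ : D.Cx → ℂ) ⟨_, hconj h⟩ = (D.cj h φ : D.V → ℂ) v := fun h => by
      rw [cj_apply, ← hφ (D.r h * 1)]
      exact congrArg _ (Subtype.ext (D.pt_conj h 1 v))
    have h3 : (θ : D.Cx → ℂ) 1 = (charDegree (φ : D.V → ℂ) : ℂ) := by
      rw [← apply_one (isCharacter_of_irr φ.2), ← hφ 0]
      exact congrArg _ (Subtype.ext (by simp [cpt, pt]))
    simp only [h2]
    rw [D.sum_cj, h3, nrm, odeg, D.card_orb,
      ← Subgroup.index_mul_card (Clifford.inertia (G := D.H) (φ : D.V → ℂ))]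
    have : (charDegree (φ : D.V → ℂ) : ℂ) ≠ 0 := Nat.cast_ne_zero.2 (charDegree_pos φ.2).ne'
    have : ((Clifford.inertia (G := D.H) (φ : D.V → ℂ)).index : ℂ) ≠ 0 :=
      Nat.cast_ne_zero.2 Subgroup.index_ne_zero_of_finite
    push_cast
    field_simp
  have hidx : (m : ℕ) * (Subgroup.centralizer ({g} : Set G)).index =
      (Subgroup.normalizer (Subgroup.zpowers D.x : Set G)).index * Nat.card D.H := by
    have h1 : Nat.card (Subgroup.centralizer ({g} : Set G)) = p * m := by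
      rw [hm, ← D.count_pt hone v 1 v]
      refine Nat.card_congr (Equiv.subtypeEquivRight fun y => ?_)
      rw [Subgroup.mem_centralizer_singleton_iff]
      exact mul_inv_eq_iff_eq_mul.symm
    refine Nat.eq_of_mul_eq_mul_left D.hp.pos ?_
    rw [← mul_assoc, ← h1, Subgroup.card_mul_index, ← mul_assoc, mul_comm p, mul_assoc, ← D.card_normalizer,
      Subgroup.index_mul_card]
  set n := (Subgroup.normalizer (Subgroup.zpowers D.x : Set G)).index
  have hn : (p : ℤ) ∣ (n : ℤ) - 1 := by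
    have hcP : Nat.card (Subgroup.zpowers D.x) = p ^ (Nat.card G).factorization p := by
      have h1 : (Nat.card G).factorization p = 1 := by
        have a1 := (D.hp.pow_dvd_iff_le_factorization Nat.card_pos.ne').not.1 D.hSyl
        have a2 := (D.hp.pow_dvd_iff_le_factorization Nat.card_pos.ne' (k := 1)).1 (by
          rw [pow_one]; exact D.dvd_natCard_G)
        omega
      rw [h1, pow_one, Nat.card_zpowers, D.hx]
    let P : Sylow p G := Sylow.ofCard (Subgroup.zpowers D.x) hcP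
    have h1 : Nat.card (Sylow p G) = n := Sylow.card_eq_index_normalizer P
    have h2 := (card_sylow_modEq_one p G)
    rw [h1] at h2
    exact Int.modEq_iff_dvd.1 (Int.natCast_modEq_iff.2 h2.symm)
  have h4 := memLocalIdeal_mul_left hM (memLocalRing_natCast hM m)
    (memLocalIdeal_add hM (hind g) (D.centralChar_pt hM hχ 1 v))
  have h5 : MemLocalIdeal M ((Nat.card D.H : ℂ) * (D.nrm φ v - (n : ℂ) * D.nrm φ₀ v)) := by
    convert h4 using 1
    rw [sub_add_sub_cancel, mul_sub, mul_sub, hleft, ← mul_assoc (m : ℂ),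
      show (m : ℂ) * ((Subgroup.centralizer ({g} : Set G)).index : ℂ) = (n : ℂ) * (Nat.card D.H : ℂ) by
        exact_mod_cast hidx]
    ring
  have h6 : MemLocalIdeal M (D.nrm φ v - (n : ℂ) * D.nrm φ₀ v) := by
    have h7 := memLocalIdeal_mul_left hM (memLocalRing_natCast_inv hM D.hHp) h5
    rwa [inv_mul_cancel_left₀ (Nat.cast_ne_zero.2 Nat.card_pos.ne')] at h7
  have h8 := memLocalIdeal_add hM h6 (memLocalIdeal_mul_right hM ((memLocalIdeal_intCast_iff hM _).2 hn)
    (D.memLocalRing_nrm hM φ₀ v))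
  convert h8 using 1
  push_cast
  ring

end Data

end CfsgLib.DefectOne

namespace CfsgLib.DefectOne.Data

open Cfsg

universe u

variable {G : Type u} [Group G] [Fintype G] {p : ℕ} [Fact p.Prime] (D : Data G p)

theorem conj_pt_pow_mul (k : ℕ) (h : D.H) (i : ZMod p) (v : D.V) :
    D.x ^ k * (h : G) * D.pt (i, v) * (D.x ^ k * (h : G))⁻¹ =
      D.pt (D.r h * i, ⟨h * v * h⁻¹, D.normal_V.conj_mem _ v.2 h⟩) := by
  have hc : Commute (D.x ^ k) (D.pt (D.r h * i, ⟨h * v * h⁻¹, D.normal_V.conj_mem _ v.2 h⟩)) :=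
    ((D.commute_pt _).pow_right k).symm
  rw [show D.x ^ k * (h : G) * D.pt (i, v) * (D.x ^ k * (h : G))⁻¹ =
    D.x ^ k * ((h : G) * D.pt (i, v) * (h : G)⁻¹) * (D.x ^ k)⁻¹ by group, D.pt_conj, hc.eq, mul_inv_cancel_right]

theorem relIndex_stabilizer {θ : D.Cx → ℂ} {φ : IrrCharacter D.V}
    (hφ : ∀ i v, θ (D.cpt i v) = (φ : D.V → ℂ) v) {T : Subgroup G}
    (hT : ∀ g : G, g ∈ T ↔ (g ∈ Subgroup.normalizer (Subgroup.zpowers D.x : Set G) ∧
      ∀ c c' : D.Cx, (c' : G) = g * c * g⁻¹ → θ c' = θ c)) :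
    D.Cx.relIndex T = Nat.card (D.U φ) := by
  classical
  have hmem : ∀ (k : ZMod p) (h : D.H), D.x ^ k.val * (h : G) ∈ T ↔
      h ∈ Clifford.inertia (G := D.H) (φ : D.V → ℂ) := by
    intro k h
    rw [hT, D.mem_inertia_iff]
    constructor
    · rintro ⟨-, hc⟩
      refine Subtype.ext (funext fun v => ?_)
      rw [cj_apply, ← hφ (D.r h * 0), ← hφ 0]
      exact hc _ _ (D.conj_pt_pow_mul _ h 0 v).symm
    · intro hh
      refine ⟨D.mem_normalizer_iff_exists.2 ⟨k, h, rfl⟩, fun c c' hcc => ?_⟩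
      obtain ⟨⟨i, v⟩, hq⟩ := D.exists_pt (D.mem_centralizer_iff_commute.1 c.2)
      have hc : c = D.cpt i v := Subtype.ext hq
      subst hc
      have hc' : c' = D.cpt (D.r h * i) ⟨h * v * h⁻¹, D.normal_V.conj_mem _ v.2 h⟩ :=
        Subtype.ext (hcc.trans (D.conj_pt_pow_mul _ h i v))
      rw [hc', hφ, hφ, ← cj_apply, hh]
  have hcard : Nat.card T = p * Nat.card (Clifford.inertia (G := D.H) (φ : D.V → ℂ)) := by
    refine Eq.trans ?_ ((Nat.card_prod (ZMod p) (Clifford.inertia (G := D.H) (φ : D.V → ℂ))).trans (by rw [Nat.card_zmod]))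
    refine (Nat.card_congr (Equiv.ofBijective
      (fun q : ZMod p × Clifford.inertia (G := D.H) (φ : D.V → ℂ) =>
        (⟨D.x ^ q.1.val * ((q.2 : D.H) : G), (hmem _ _).2 q.2.2⟩ : T)) ⟨?_, ?_⟩)).symm
    · intro a b h
      obtain ⟨h1, h2⟩ := D.pow_mul_H_inj (congrArg Subtype.val h)
      exact Prod.ext h1 (Subtype.ext h2)
    · rintro ⟨g, hg⟩
      obtain ⟨k, h, rfl⟩ := D.mem_normalizer_iff_exists.1 ((hT g).1 hg).1
      exact ⟨(k, ⟨h, (hmem k h).1 hg⟩), rfl⟩
  have hle : D.Cx ≤ T := by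
    intro g hg
    obtain ⟨⟨i, v⟩, rfl⟩ := D.exists_pt (D.mem_centralizer_iff_commute.1 hg)
    exact (hmem i (v : D.H)).2 (D.V_le_inertia φ v.2)
  have h1 := Subgroup.card_mul_index (D.Cx.subgroupOf T)
  rw [Nat.card_congr (Subgroup.subgroupOfEquivOfLe hle).toEquiv] at h1
  change _ * D.Cx.relIndex T = _ at h1
  rw [D.card_centralizer, hcard, D.card_inertia, ← mul_assoc] at h1
  exact Nat.eq_of_mul_eq_mul_left (Nat.mul_pos D.hp.pos Nat.card_pos) h1

end CfsgLib.DefectOne.Data
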